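import Cfsg.Agent.Lib.H34.TCO8B.Chk
set_option Elab.async false
set_option autoImplicit false
set_option maxRecDepth 100000
set_option linter.all false
namespace H34.TCO8B
open H35.TC
theorem r_0 : allB chkP 9 0 = true := by decide +kernel
end H34.TCO8B
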